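import Cfsg.Agent.Lib.KR62.Orb

/-! Covering the fixed point free elements of a coset by few conjugacy classes. -/

set_option autoImplicit false
set_option linter.unusedSectionVars false

namespace H62.KD

open Subgroup MulAction Finset Equiv H62.KT

variable {α : Type*} [Fintype α] [DecidableEq α] {p : ℕ} (w : Pot p)

/-- The elements of `g A` without fixed point in `D` are covered by at most `N` classes under `H`. -/
def Cw (H A : Subgroup (Perm α)) (g : Perm α) (D : Finset α) (N : ℚ) : Prop :=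
  ∃ T : Finset (Perm α), (T.card : ℚ) ≤ N ∧
    ∀ x, g⁻¹ * x ∈ A → (∀ y ∈ D, x y ≠ y) → ∃ t ∈ T, ∃ h ∈ H, h * t * h⁻¹ = x

/-- The pointed and the unpointed claim for the active set `S`. -/
def Cl (S : Finset α) : Prop :=
  ∀ (A : Subgroup (Perm α)) (g : Perm α), ¬ p ∣ Nat.card A → (∀ x ∉ S, g x = x ∧ ∀ a ∈ A, a x = x) →
    (∀ z ∈ S, (∀ h : Perm α, h z = z → (h ∈ A ↔ g⁻¹ * h * g ∈ A)) →
      Cw (A ⊓ stabilizer (Perm α) z) A g (S.erase z) (w.q (ob A z).card * W w A (S \ ob A z))) ∧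
    ((∀ h : Perm α, h ∈ A ↔ g⁻¹ * h * g ∈ A) → Cw A A g S (W w A S))

theorem eqns_der : True := by
  have := @Cw.eq_1.{0}
  have := @Cl.eq_1.{0}
  trivial

variable {A B H : Subgroup (Perm α)} {S : Finset α} {g : Perm α} {z : α}

theorem Cw.le {D : Finset α} {N M : ℚ} (h : Cw H A g D N) (e : N ≤ M) : Cw H A g D M :=
  have ⟨T, h1, h2⟩ := h; ⟨T, h1.trans e, h2⟩

theorem mem_of_fix (h : ∀ x ∉ S, g x = x) (hz : z ∈ S) : g z ∈ S := by
  by_contra e
  exact e ((g.injective (h _ e)).symm ▸ hz)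

theorem not_dvd_of_le (hp : ¬ p ∣ Nat.card A) (h : H ≤ A) : ¬ p ∣ Nat.card H :=
  fun k => hp (k.trans (card_dvd_of_le h))

theorem branch (ih : Cl w (S.erase z)) (hp : ¬ p ∣ Nat.card A) (h : ∀ x ∉ S, g x = x ∧ ∀ a ∈ A, a x = x)
    (hz : z ∈ S) (hH : ∀ h : Perm α, h z = z → (h ∈ A ↔ g⁻¹ * h * g ∈ A)) (hH' : H = A ⊓ stabilizer (Perm α) z)
    (γ : α) : ∃ T : Finset (Perm α), (T.card : ℚ) ≤ (if γ = z then W w H (S.erase z) else
      w.q (ob H γ).card * W w H (S.erase z \ ob H γ)) ∧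
      ∀ x, g⁻¹ * x ∈ A → (∀ y ∈ S.erase z, x y ≠ y) → x z = γ → ∃ t ∈ T, ∃ h ∈ H, h * t * h⁻¹ = x := by
  subst hH'
  by_cases hx : ∃ x : Perm α, g⁻¹ * x ∈ A ∧ x z = γ
  swap
  · refine ⟨∅, ?_, fun x h1 _ h2 => absurd ⟨x, h1, h2⟩ hx⟩
    split_ifs
    exacts [by simpa using W_nonneg w _ _, by simpa using mul_nonneg (w.q0 _) (W_nonneg w _ _)]
  obtain ⟨x, hx, rfl⟩ := hx
  have fx : ∀ y ∉ S, x y = y := fun y hy => by
    have := (h y hy).2 _ hx
    rwa [Perm.mul_apply, Perm.inv_eq_iff_eq, (h y hy).1] at this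
  have γS : x z ∈ S := mem_of_fix fx hz
  obtain ⟨i1, i2⟩ := ih (A ⊓ stabilizer (Perm α) z) (swap z (x z) * x) (not_dvd_of_le hp inf_le_left) fun y hy => by
    by_cases e : y = z
    · subst e
      exact ⟨by simp, fun a ha => ha.2⟩
    · have hy' : y ∉ S := fun k => hy (mem_erase.2 ⟨e, k⟩)
      exact ⟨by rw [Perm.mul_apply, fx y hy', swap_apply_of_ne_of_ne e fun k => hy' (k ▸ γS)],
        fun a ha => (h y hy').2 a ha.1⟩
  set H := A ⊓ stabilizer (Perm α) z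
  have : Cw (H ⊓ stabilizer (Perm α) (x z)) H (swap z (x z) * x) ((S.erase z).erase (x z))
      (if x z = z then W w H (S.erase z) else w.q (ob H (x z)).card * W w H (S.erase z \ ob H (x z))) := by
    split_ifs with e
    · rw [inf_eq_left.2 (show H ≤ stabilizer (Perm α) (x z) by rw [e]; exact inf_le_right),
        erase_eq_of_notMem (by simp [e])]
      exact i2 fun k => contract hx hH k fun e' => absurd e e'
    · exact i1 _ (mem_erase.2 ⟨e, γS⟩) fun k hk => contract hx hH k fun _ => hk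
  obtain ⟨T, h1, h2⟩ := this
  refine ⟨T.image (swap z (x z) * ·), le_trans (by exact_mod_cast card_image_le) h1, fun y hy hn e => ?_⟩
  obtain ⟨t, ht, k, hk, e'⟩ := h2 (swap z (x z) * y) (by
    rw [show (swap z (x z) * x)⁻¹ * (swap z (x z) * y) = (g⁻¹ * x)⁻¹ * (g⁻¹ * y) by group]
    refine Subgroup.mem_inf.2 ⟨mul_mem (inv_mem hx) hy, ?_⟩
    simp [e]) fun u hu e' => by
    rw [Perm.mul_apply, swap_apply_eq_iff, swap_apply_of_ne_of_ne (ne_of_mem_erase (mem_of_mem_erase hu))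
      (ne_of_mem_erase hu)] at e'
    exact hn u (mem_of_mem_erase hu) e'
  refine ⟨_, mem_image_of_mem _ ht, k, hk.1, ?_⟩
  rw [← mul_assoc, swap_comm' hk.1.2 hk.2, mul_assoc, mul_assoc, ← mul_assoc k, e', swap_mul_self_mul]

theorem step (ih : Cl w (S.erase z)) (hp : ¬ p ∣ Nat.card A) (h : ∀ x ∉ S, g x = x ∧ ∀ a ∈ A, a x = x)
    (hz : z ∈ S) (hH : ∀ h : Perm α, h z = z → (h ∈ A ↔ g⁻¹ * h * g ∈ A)) (hH' : H = A ⊓ stabilizer (Perm α) z)
    (hB : ∀ b, b ∈ B ↔ g⁻¹ * b * g ∈ A) {X : Finset α} (hX : X = (ob B (g z)).erase z) (XS : X ⊆ S.erase z)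
    (iX : Iv H X) : Cw H A g S (P w H X * W w H (S.erase z \ X)) ∧
      Cw H A g (S.erase z) (P w H X * W w H (S.erase z \ X) + if z ∈ ob B (g z) then W w H (S.erase z) else 0) := by
  choose T h1 h2 using branch w ih hp h hz hH hH'
  have hA : ∀ k ∈ H, k ∈ A ∧ k z = z := fun k hk => by rw [hH'] at hk; exact hk
  have m : ∀ x, g⁻¹ * x ∈ A → x z ∈ ob B (g z) := fun x hx =>
    mem_ob.2 ⟨x * g⁻¹, (hB _).2 (by simpa [mul_assoc] using hx), by simp⟩
  have c1 : Cw H A g S (P w H X * W w H (S.erase z \ X)) := by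
    have : ∀ ω : Finset α, ∃ γ, ω.Nonempty → γ ∈ ω := fun ω => by
      rcases ω.eq_empty_or_nonempty with rfl | ⟨γ, e⟩
      exacts [⟨z, fun ⟨_, e⟩ => absurd e (notMem_empty _)⟩, ⟨γ, fun _ => e⟩]
    choose r hr using this
    refine ⟨(X.image (ob H)).biUnion fun ω => T (r ω), ?_, fun x hx hn => ?_⟩
    · rw [P, sum_mul]
      refine le_trans (by exact_mod_cast card_biUnion_le) (sum_le_sum (f := fun ω => ((T (r ω)).card : ℚ)) fun ω e => ?_)
      obtain ⟨y, hy, rfl⟩ := mem_image.1 e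
      have e1 := hr _ ⟨y, self_ob H y⟩
      have e2 := iX.ob_sub hy
      refine (h1 _).trans ?_
      rw [if_neg (ne_of_mem_erase (XS (e2 e1))), ob_eq e1, mul_assoc,
        W_split w (iX.sdiff (iv_ob H y)) (sdiff_subset_sdiff XS subset_rfl)]
      refine le_of_eq (congrArg _ (congrArg _ (congrArg _ (Finset.ext fun u => ?_))))
      have := @e2 u
      simp only [mem_sdiff]; tauto
    · obtain ⟨k, hk, e⟩ := mem_ob.1 (hr _ ⟨_, self_ob H (x z)⟩)
      have kp : k⁻¹ z = z := (hA _ (inv_mem hk)).2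
      obtain ⟨t, ht, l, hl, e'⟩ := h2 (r (ob H (x z))) (k * x * k⁻¹) (by
        rw [show g⁻¹ * (k * x * k⁻¹) = g⁻¹ * k * g * (g⁻¹ * x) * k⁻¹ by group]
        exact mul_mem (mul_mem ((hH k (hA k hk).2).1 (hA k hk).1) hx) (inv_mem (hA k hk).1)) (fun u hu e' => by
        rw [Perm.mul_apply, Perm.mul_apply, ← Perm.eq_inv_iff_eq] at e'
        exact hn _ (mem_of_fix (fun y hy => (h y hy).2 _ (inv_mem (hA k hk).1)) (mem_of_mem_erase hu)) e') (by
        rw [Perm.mul_apply, Perm.mul_apply, kp]; exact e)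
      refine ⟨t, mem_biUnion.2 ⟨_, mem_image_of_mem _ (hX ▸ mem_erase.2 ⟨hn z hz, m x hx⟩), ht⟩, k⁻¹ * l,
        mul_mem (inv_mem hk) hl, ?_⟩
      calc k⁻¹ * l * t * (k⁻¹ * l)⁻¹ = k⁻¹ * (l * t * l⁻¹) * k := by group
        _ = x := by rw [e']; group
  refine ⟨c1, ?_⟩
  obtain ⟨T1, c1, c2⟩ := c1
  refine ⟨T1 ∪ if z ∈ ob B (g z) then T z else ∅, ?_, fun x hx hn => ?_⟩
  · refine (Nat.cast_le.2 (card_union_le _ _)).trans ((Nat.cast_add _ _).trans_le (add_le_add c1 ?_))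
    split_ifs
    exacts [by simpa using h1 z, by simp]
  by_cases e : x z = z
  · obtain ⟨t, ht, k⟩ := h2 z x hx hn e
    exact ⟨t, mem_union_right _ (by rwa [if_pos (e ▸ m x hx :)]), k⟩
  · obtain ⟨t, ht, k⟩ := c2 x hx fun y hy => if e' : y = z then e' ▸ e else hn y (mem_erase.2 ⟨e', hy⟩)
    exact ⟨t, mem_union_left _ ht, k⟩

theorem step2 (ih : Cl w (S.erase z)) (hp : ¬ p ∣ Nat.card A) (h : ∀ x ∉ S, g x = x ∧ ∀ a ∈ A, a x = x)
    (hz : z ∈ S) (hH : ∀ h : Perm α, h z = z → (h ∈ A ↔ g⁻¹ * h * g ∈ A)) :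
    Cw (A ⊓ stabilizer (Perm α) z) A g S (w.e (ob A z).card * W w A (S \ ob A z)) ∧
      Cw (A ⊓ stabilizer (Perm α) z) A g (S.erase z) (w.q (ob A z).card * W w A (S \ ob A z)) := by
  let B : Subgroup (Perm α) := A.comap (MulAut.conj g⁻¹).toMonoidHom
  have hB : ∀ b, b ∈ B ↔ g⁻¹ * b * g ∈ A := fun b => by simp [B]
  have eH : B ⊓ stabilizer (Perm α) z = A ⊓ stabilizer (Perm α) z :=
    Subgroup.ext fun k => and_congr_left fun hk => (hB k).trans (hH k hk).symm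
  set H := A ⊓ stabilizer (Perm α) z with hH'
  have HB : H ≤ B := eH ▸ inf_le_left
  have pH : ¬ p ∣ Nat.card H := not_dvd_of_le hp inf_le_left
  have iS : Iv B S := fun b hb y hy => mem_of_fix (fun u hu => by
    have := (h u hu).2 _ ((hB b).1 hb)
    rwa [Perm.mul_apply, Perm.mul_apply, Perm.inv_eq_iff_eq, (h u hu).1] at this) hy
  have gS := mem_of_fix (fun u hu => (h u hu).1) hz
  have iX : Iv H ((ob B (g z)).erase z) := ((iv_ob B _).mono HB).erase fun a ha => ha.2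
  have XS : (ob B (g z)).erase z ⊆ S.erase z := erase_subset_erase _ (iS.ob_sub gS)
  obtain ⟨c1, c2⟩ := step w ih hp h hz hH hH' hB rfl XS iX
  have s1 : (ob B (g z)).card = (ob A z).card := by rw [ob_conj hB, card_image_of_injective _ g.injective]
  have s2 : (ob B z).card = (ob A z).card := by
    have := card_ob B z
    rw [eH, show Nat.card B = Nat.card A from Nat.card_congr ((MulAut.conj g⁻¹).toEquiv.subtypeEquiv
      (q := (· ∈ A)) fun b => by simp [B]), ← card_ob A z] at this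
    exact Nat.eq_of_mul_eq_mul_right Nat.card_pos this
  have eR : W w A (S \ ob A z) = W w B (S \ ob B (g z)) := by
    rw [← W_conj w hB, image_sdiff_of_injOn g.injective.injOn ((iv_ob A z).ob_sub (self_ob A z) |>.trans
      (Iv.ob_sub (fun a ha y hy => mem_of_fix (fun u hu => (h u hu).2 a ha) hy) hz)), ← ob_conj hB,
      eq_of_subset_of_card_le (image_subset_iff.2 fun y hy => mem_of_fix (fun u hu => (h u hu).1) hy)
        (card_image_of_injective _ g.injective).ge]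
  obtain ⟨t, ht⟩ : ∃ t, (ob A z).card = t + 1 := Nat.exists_eq_add_one.2 (card_pos.2 ⟨z, self_ob A z⟩)
  obtain ⟨n1, n2, n3, n4⟩ := w.st t (ht ▸ adm hp z)
  obtain ⟨-, k2, k3⟩ := closure w pH _ iX
  have iR := iS.sdiff (iv_ob B (g z))
  rw [eR, ht]
  by_cases e : z ∈ ob B (g z)
  · have e1 : S.erase z \ (ob B (g z)).erase z = S \ ob B (g z) := Finset.ext fun u => by
      simp only [mem_sdiff, mem_erase]
      exact ⟨fun ⟨⟨a, b⟩, c⟩ => ⟨b, fun d => c ⟨a, d⟩⟩, fun ⟨a, b⟩ => ⟨⟨fun d => b (d ▸ e), a⟩, fun d => b d.2⟩⟩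
    rw [if_pos e, W_split w iX XS, ← add_mul, e1] at c2
    rw [e1] at c1
    rw [card_erase_of_mem e, s1, ht, Nat.add_sub_cancel] at k2 k3
    exact ⟨c1.le (mul_le_mul (k2.trans n2) (W_mono w pH HB _ iR) (W_nonneg w _ _) (w.e0 _)),
      c2.le (mul_le_mul (k3.trans n1) (W_mono w pH HB _ iR) (W_nonneg w _ _) (w.q0 _))⟩
  · have zR := mem_sdiff.2 ⟨hz, e⟩
    have iY : Iv H ((ob B z).erase z) := ((iv_ob B _).mono HB).erase fun a ha => ha.2
    have e1 : (S.erase z \ ob B (g z)) \ (ob B z).erase z = (S \ ob B (g z)) \ ob B z := Finset.ext fun u => by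
      simp only [mem_sdiff, mem_erase]
      exact ⟨fun ⟨⟨⟨a, b⟩, c⟩, d⟩ => ⟨⟨b, c⟩, fun f => d ⟨a, f⟩⟩, fun ⟨⟨a, b⟩, c⟩ =>
        ⟨⟨⟨fun d => c (d ▸ self_ob B z), a⟩, b⟩, fun d => c d.2⟩⟩
    have k4 := (closure w pH _ iY).1
    rw [card_erase_of_mem (self_ob B z), s2, ht, Nat.add_sub_cancel] at k4
    rw [if_neg e, add_zero] at c2
    rw [erase_eq_of_notMem e] at c1 c2 k2
    rw [s1, ht] at k2
    have k5 : P w H (ob B (g z)) * W w H (S.erase z \ ob B (g z)) ≤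
        w.B (t + 1) * w.e t * W w B ((S \ ob B (g z)) \ ob B z) := by
      rw [W_split w iY (by rw [erase_sdiff_comm]; exact erase_subset_erase _ (iR.ob_sub zR)), e1, mul_assoc]
      exact mul_le_mul k2 (mul_le_mul k4 (W_mono w pH HB _ (iR.sdiff (iv_ob B z))) (W_nonneg w _ _) (w.e0 _))
        (mul_nonneg (W_nonneg w _ _) (W_nonneg w _ _)) (w.B0 _)
    rw [W_step w zR, s2, ht, ← mul_assoc, ← mul_assoc]
    exact ⟨c1.le (k5.trans (mul_le_mul_of_nonneg_right n3 (W_nonneg w _ _))),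
      c2.le (k5.trans (mul_le_mul_of_nonneg_right n4 (W_nonneg w _ _)))⟩

theorem cl (S : Finset α) : Cl w S := by
  induction S using Finset.strongInduction with
  | H S ih =>
    intro A g hp h
    refine ⟨fun z hz hH => (step2 w (ih _ (erase_ssubset hz)) hp h hz hH).2, fun hH => ?_⟩
    rcases S.eq_empty_or_nonempty with rfl | ⟨z, hz⟩
    · refine ⟨{g}, by simp [W], fun x hx _ => ⟨g, by simp, 1, one_mem _, ?_⟩⟩
      have : g⁻¹ * x = 1 := Equiv.ext fun y => (h y (notMem_empty y)).2 _ hx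
      rw [one_mul, inv_one, mul_one, inv_mul_eq_one.1 this]
    · obtain ⟨T, h1, h2⟩ := (step2 w (ih _ (erase_ssubset hz)) hp h hz fun k _ => hH k).1
      exact ⟨T, W_step w hz ▸ h1, fun x hx hn => have ⟨t, ht, k, hk, e⟩ := h2 x hx hn; ⟨t, ht, k, hk.1, e⟩⟩

/-- classes of a transitive group: those meeting a point stabiliser and the fixed point free ones -/
theorem trans_le (hp : ¬ p ∣ Nat.card A) (hA : ∀ x y : α, ∃ a ∈ A, a x = y) (z : α)
    (hH : H = A ⊓ stabilizer (Perm α) z) :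
    (Nat.card (ConjClasses A) : ℚ) ≤ Nat.card (ConjClasses H) + P w H (univ.erase z) := by
  have e : ob A ((1 : Perm α) z) = univ := eq_univ_of_forall fun y => mem_ob.2 (hA _ y)
  obtain ⟨T, h1, h2⟩ := (step w (cl w _) hp (g := 1) (B := A) (fun x hx => absurd (mem_univ x) hx) (mem_univ z)
    (by simp) hH (by simp) (X := univ.erase z) (by rw [e]) subset_rfl
    (Iv.erase (fun _ _ _ _ => mem_univ _) fun a ha => (hH ▸ ha :  a ∈ A ⊓ stabilizer (Perm α) z).2)).1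
  rw [sdiff_self, show W w H ⊥ = 1 by simp [W], mul_one] at h1
  have := Fintype.ofFinite (ConjClasses H)
  choose r hr using ConjClasses.mk_surjective (α := H)
  have : Cv A A 1 (Nat.card (ConjClasses H) + T.card) := by
    refine ⟨(univ.image fun c => (r c : Perm α)) ∪ T, (card_union_le _ _).trans (Nat.add_le_add_right
      (card_image_le.trans (by simp)) _), fun x hx => ?_⟩
    by_cases hn : ∀ y ∈ univ, x y ≠ y
    · obtain ⟨t, ht, k, hk, e⟩ := h2 x hx hn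
      exact ⟨t, mem_union_right _ ht, k, (hH ▸ hk : k ∈ A ⊓ stabilizer (Perm α) z).1, e⟩
    push Not at hn
    obtain ⟨y, -, hy⟩ := hn
    obtain ⟨a, ha, rfl⟩ := hA z y
    have hx' : a⁻¹ * x * a ∈ H := hH ▸ Subgroup.mem_inf.2 ⟨mul_mem (mul_mem (inv_mem ha) (by simpa using hx)) ha,
      by simp [hy]⟩
    obtain ⟨c, hc⟩ := isConj_iff.1 (ConjClasses.mk_eq_mk_iff_isConj.1 (hr (ConjClasses.mk ⟨_, hx'⟩)))
    refine ⟨_, mem_union_left _ (mem_image_of_mem _ (mem_univ (ConjClasses.mk ⟨_, hx'⟩))), a * c,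
      mul_mem ha (hH ▸ c.2 : c.1 ∈ A ⊓ stabilizer (Perm α) z).1, ?_⟩
    have := congrArg Subtype.val hc
    simp only [Subgroup.coe_mul, Subgroup.coe_inv] at this
    rw [mul_inv_rev, mul_assoc a, mul_assoc a, ← mul_assoc _ _ a⁻¹, this]; group
  exact le_trans (by exact_mod_cast card_le_of_cv this) (add_le_add_right h1 _)

end H62.KD
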