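import Cfsg.Agent.Lib.KR62.Two

/-! Product potentials over the orbits of a permutation group. -/

set_option autoImplicit false
set_option linter.unusedSectionVars false

namespace H62.KD

open Subgroup MulAction Finset Equiv

/-- Weights of orbits by their sizes, for groups of order prime to `p`. -/
structure Pot (p : ℕ) where
  (e q B G : ℕ → ℚ)
  e0 : ∀ s, 0 ≤ e s
  q0 : ∀ s, 0 ≤ q s
  B0 : ∀ s, 0 ≤ B s
  e1 : 1 ≤ e 0
  G1 : 1 ≤ G 0
  ce : ∀ a m, ¬ p ∣ a → e a * e m ≤ e (a + m)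
  cB : ∀ a m, ¬ p ∣ a → e a * B m + q a * e m ≤ B (a + m)
  cG : ∀ a m, ¬ p ∣ a → e a * G m + q a * e m ≤ G (a + m)
  st : ∀ t, ¬ p ∣ t + 1 → G t ≤ q (t + 1) ∧ B t ≤ e (t + 1) ∧ B (t + 1) * e t ≤ e (t + 1) * e (t + 1) ∧
    B (t + 1) * e t ≤ q (t + 1) * e (t + 1)

variable {α : Type*} [Fintype α] [DecidableEq α] {p : ℕ} (w : Pot p)

open Classical in
/-- The orbit of a point. -/
noncomputable def ob (A : Subgroup (Perm α)) (x : α) : Finset α := univ.filter fun y => ∃ a ∈ A, a x = y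

/-- The product of the weights of the orbits. -/
noncomputable def W (A : Subgroup (Perm α)) (X : Finset α) : ℚ := ∏ ω ∈ X.image (ob A), w.e ω.card

/-- The sum of the pointed weights. -/
noncomputable def P (A : Subgroup (Perm α)) (X : Finset α) : ℚ :=
  ∑ ω ∈ X.image (ob A), w.q ω.card * W w A (X \ ω)

/-- Invariant sets. -/
def Iv (A : Subgroup (Perm α)) (X : Finset α) : Prop := ∀ a ∈ A, ∀ x ∈ X, a x ∈ X

theorem eqns_kd : True := by
  have := @ob.eq_1.{0}
  have := @W.eq_1.{0}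
  have := @P.eq_1.{0}
  have := @Iv.eq_1.{0}
  trivial

variable {A B H : Subgroup (Perm α)} {X Y : Finset α} {x y : α}

theorem mem_ob : y ∈ ob A x ↔ ∃ a ∈ A, a x = y := by simp [ob]

theorem self_ob (A : Subgroup (Perm α)) (x : α) : x ∈ ob A x := mem_ob.2 ⟨1, one_mem _, rfl⟩

theorem iv_ob (A : Subgroup (Perm α)) (x : α) : Iv A (ob A x) := fun a ha y hy => by
  obtain ⟨b, hb, rfl⟩ := mem_ob.1 hy
  exact mem_ob.2 ⟨a * b, mul_mem ha hb, rfl⟩

theorem Iv.ob_sub (h : Iv A X) (hx : x ∈ X) : ob A x ⊆ X := fun y hy => by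
  obtain ⟨b, hb, rfl⟩ := mem_ob.1 hy
  exact h b hb x hx

theorem ob_eq (h : y ∈ ob A x) : ob A y = ob A x := by
  refine ((iv_ob A x).ob_sub h).antisymm ((iv_ob A y).ob_sub ?_)
  obtain ⟨b, hb, rfl⟩ := mem_ob.1 h
  exact mem_ob.2 ⟨b⁻¹, inv_mem hb, by simp⟩

theorem Iv.sdiff (h : Iv A X) (h' : Iv A Y) : Iv A (X \ Y) := fun a ha x hx =>
  mem_sdiff.2 ⟨h a ha x (mem_sdiff.1 hx).1, fun k => (mem_sdiff.1 hx).2 (by simpa using h' _ (inv_mem ha) _ k)⟩

theorem Iv.mono (h : Iv A X) (hH : H ≤ A) : Iv H X := fun a ha => h a (hH ha)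

theorem Iv.erase (h : Iv A X) (hx : ∀ a ∈ A, a x = x) : Iv A (X.erase x) := by
  rw [← sdiff_singleton_eq_erase]
  exact h.sdiff fun a ha y hy => by rw [mem_singleton.1 hy, hx a ha]; exact mem_singleton_self x

theorem card_ob (A : Subgroup (Perm α)) (x : α) :
    (ob A x).card * Nat.card (A ⊓ stabilizer (Perm α) x : Subgroup (Perm α)) = Nat.card A := by
  have h1 : stabilizer A x = (stabilizer (Perm α) x).subgroupOf A := by ext; rfl
  have h2 : (orbit A x) = (ob A x : Set α) := Set.ext fun y => by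
    simp [mem_ob, mem_orbit_iff, Subgroup.smul_def]
  rw [← (stabilizer A x).index_mul_card, index_stabilizer, h2, Set.ncard_coe_finset, h1, ← inf_subgroupOf_left,
    Nat.card_congr (subgroupOfEquivOfLe inf_le_left).toEquiv]

theorem adm (h : ¬ p ∣ Nat.card A) (x : α) : ¬ p ∣ (ob A x).card :=
  fun k => h (card_ob A x ▸ k.mul_right _)

theorem image_sdiff (X : Finset α) (x : α) : (X \ ob A x).image (ob A) = (X.image (ob A)).erase (ob A x) := by
  ext ω
  simp only [mem_image, mem_sdiff, mem_erase]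
  exact ⟨fun ⟨y, ⟨h1, h2⟩, h3⟩ => ⟨fun e => h2 (e ▸ h3 ▸ self_ob A y), y, h1, h3⟩,
    fun ⟨h1, y, h2, h3⟩ => ⟨y, ⟨h2, fun k => h1 (h3 ▸ ob_eq k)⟩, h3⟩⟩

theorem W_nonneg (A : Subgroup (Perm α)) (X : Finset α) : 0 ≤ W w A X := prod_nonneg fun _ _ => w.e0 _

theorem P_nonneg (A : Subgroup (Perm α)) (X : Finset α) : 0 ≤ P w A X :=
  sum_nonneg fun _ _ => mul_nonneg (w.q0 _) (W_nonneg w _ _)

theorem W_step (hx : x ∈ X) : W w A X = w.e (ob A x).card * W w A (X \ ob A x) := by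
  rw [W, W, image_sdiff, mul_prod_erase _ (fun ω : Finset α => w.e ω.card) (mem_image_of_mem _ hx)]

theorem P_step (hx : x ∈ X) :
    P w A X = w.e (ob A x).card * P w A (X \ ob A x) + w.q (ob A x).card * W w A (X \ ob A x) := by
  rw [P, P, image_sdiff, ← sum_erase_add _ _ (mem_image_of_mem (ob A) hx), mul_sum]
  refine congrArg (· + _) (sum_congr rfl fun ω h => ?_)
  obtain ⟨h1, h2⟩ := mem_erase.1 h
  obtain ⟨y, -, rfl⟩ := mem_image.1 h2
  rw [W_step w (mem_sdiff.2 ⟨hx, fun k => h1 (ob_eq k).symm⟩), sdiff_right_comm, mul_left_comm]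

theorem W_split (hY : Iv A Y) (h : Y ⊆ X) : W w A X = W w A Y * W w A (X \ Y) := by
  rw [W, W, W, ← prod_union, ← image_union, union_sdiff_of_subset h]
  refine disjoint_left.2 fun ω h1 h2 => ?_
  obtain ⟨y, hy, rfl⟩ := mem_image.1 h1
  obtain ⟨z, hz, e⟩ := mem_image.1 h2
  exact (mem_sdiff.1 hz).2 (hY.ob_sub hy (e ▸ self_ob A z))

theorem closure (hp : ¬ p ∣ Nat.card A) (X : Finset α) : Iv A X →
    W w A X ≤ w.e X.card ∧ P w A X ≤ w.B X.card ∧ P w A X + W w A X ≤ w.G X.card := by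
  induction X using Finset.strongInduction with
  | H X ih =>
    intro h
    rcases X.eq_empty_or_nonempty with rfl | ⟨x, hx⟩
    · simpa [W, P] using ⟨w.e1, w.B0 0, w.G1⟩
    obtain ⟨i1, i2, i3⟩ := ih _ (sdiff_ssubset (h.ob_sub hx) ⟨x, self_ob A x⟩) (h.sdiff (iv_ob A x))
    rw [W_step w hx, P_step w hx, ← card_sdiff_add_card_eq_card (h.ob_sub hx), add_comm _ (ob A x).card]
    have e0 := w.e0 (ob A x).card
    have q0 := w.q0 (ob A x).card
    refine ⟨le_trans ?_ (w.ce _ _ (adm hp x)), le_trans ?_ (w.cB _ _ (adm hp x)), le_trans ?_ (w.cG _ _ (adm hp x))⟩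
    · gcongr
    · gcongr
    · rw [add_right_comm, ← mul_add]; gcongr

theorem W_mono (hp : ¬ p ∣ Nat.card H) (hH : H ≤ B) (X : Finset α) : Iv B X → W w H X ≤ W w B X := by
  induction X using Finset.strongInduction with
  | H X ih =>
    intro h
    rcases X.eq_empty_or_nonempty with rfl | ⟨x, hx⟩
    · simp [W]
    rw [W_step w (A := B) hx, W_split w ((iv_ob B x).mono hH) (h.ob_sub hx)]
    exact mul_le_mul (closure w hp _ ((iv_ob B x).mono hH)).1
      (ih _ (sdiff_ssubset (h.ob_sub hx) ⟨x, self_ob B x⟩) (h.sdiff (iv_ob B x))) (W_nonneg w _ _) (w.e0 _)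

theorem ob_conj {g : Perm α} (h : ∀ b, b ∈ B ↔ g⁻¹ * b * g ∈ A) (x : α) : ob B (g x) = (ob A x).image g := by
  ext y
  simp only [mem_image, mem_ob]
  exact ⟨fun ⟨b, h1, h2⟩ => ⟨_, ⟨_, (h b).1 h1, rfl⟩, by simp [h2]⟩, fun ⟨_, ⟨a, h1, rfl⟩, h2⟩ =>
    ⟨g * a * g⁻¹, (h _).2 (by simpa [mul_assoc] using h1), by simp [h2]⟩⟩

theorem W_conj {g : Perm α} (h : ∀ b, b ∈ B ↔ g⁻¹ * b * g ∈ A) (X : Finset α) :
    W w B (X.image g) = W w A X := by
  have : (X.image g).image (ob B) = (X.image (ob A)).image (·.image g) := by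
    rw [image_image, image_image]
    exact image_congr fun x _ => ob_conj h x
  rw [W, this, prod_image fun _ _ _ _ e => image_injective g.injective e]
  exact prod_congr rfl fun ω _ => by rw [card_image_of_injective _ g.injective]

end H62.KD
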