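import Cfsg.Agent.Lib.KR62.Orb

/-! The numerical tables for the bound on class numbers of permutation groups of order prime to 3, 5 or 7. -/

set_option autoImplicit false
set_option linter.style.longLine false

namespace H62.KD

/-- table -/
def tE (p : ℕ) : List ℕ :=
  if p = 3 then [10000, 10000, 14143, 14143, 34143, 56572, 56572, 148296, 241443, 241443, 638065, 1034094, 1034094, 2738650, 4600000]
  else if p = 5 then [10000, 10000, 14143, 21975, 35259, 35259, 92239, 150528, 244702, 397940, 397940, 1051681, 1711129, 2782111, 4650000]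
  else [10000, 10000, 14143, 21975, 35259, 57029, 92653, 92653, 244702, 398198, 647406, 1052674, 1711750, 2783471, 4650000]

/-- table -/
def tQ (p : ℕ) : List ℕ :=
  if p = 3 then [0, 10000, 20000, 0, 48286, 82429, 0, 195573, 343869, 0, 826755, 1464820, 0, 3533008, 7130000]
  else if p = 5 then [0, 10000, 20000, 34143, 56118, 0, 126636, 218875, 369403, 614105, 0, 1409985, 2461666, 4172795, 7210000]
  else [0, 10000, 20000, 34143, 56118, 91377, 148406, 0, 333712, 578414, 976612, 1624018, 2676692, 4388442, 7210000]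

/-- table -/
def tB (p : ℕ) : List ℕ :=
  if p = 3 then [0, 10000, 20000, 34143, 56572, 90715, 148296, 241443, 389739, 638065, 1034094, 1672159, 2738650, 4433123, 7660000]
  else if p = 5 then [0, 10000, 20000, 34143, 56572, 92239, 150528, 244702, 397370, 647139, 1051681, 1711129, 2780775, 4523412, 7750000]
  else [0, 10000, 20000, 34143, 56572, 92239, 150528, 244702, 398198, 647131, 1052576, 1711634, 2783471, 4526112, 7750000]

/-- table -/
def tG (p : ℕ) : List ℕ :=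
  if p = 3 then [10000, 20000, 34143, 48286, 82429, 139001, 195573, 343869, 585312, 826755, 1464820, 2498914, 3533008, 6271658, 11880000]
  else if p = 5 then [10000, 20000, 34143, 56118, 91377, 126636, 218875, 369403, 614105, 1012045, 1409985, 2461666, 4172795, 6954906, 12010000]
  else [10000, 20000, 34143, 56118, 91377, 148406, 241059, 333712, 578414, 976612, 1624018, 2676692, 4388442, 7171913, 12010000]

/-- table -/
def tF (p : ℕ) : List ℕ :=
  if p = 3 then [1, 1, 2, 2, 5, 9, 10, 24, 43, 48, 111, 193, 222, 495, 1260]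
  else if p = 5 then [1, 1, 2, 3, 5, 6, 15, 24, 45, 81, 90, 195, 335, 581, 1260]
  else [1, 1, 2, 3, 5, 9, 15, 18, 42, 75, 132, 229, 391, 658, 1260]


/-- normalised value, constant from 14 on -/
def nv (L : List ℕ) (D s : ℕ) : ℚ := L.getD (min s 14) 0 / D / (5 / 3) ^ min s 14

/-- the value -/
def vl (L : List ℕ) (D s : ℕ) : ℚ := nv L D s * (5 / 3) ^ s

/-- the degrees treated separately -/
def Sp (p n m : ℕ) : Prop := n = 3 ∨ (n = 4 ∧ m = 0) ∨ (p = 7 ∧ n = 5) ∨ (p = 7 ∧ n = 6 ∧ m = 0) ∨ (p = 5 ∧ n = 7)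

instance instDecSp (p n m : ℕ) : Decidable (Sp p n m) := by unfold Sp; infer_instance

theorem eqns_tab : True := by
  have := @tE.eq_1
  have := @tQ.eq_1
  have := @tB.eq_1
  have := @tG.eq_1
  have := @tF.eq_1
  have := @nv.eq_1
  have := @vl.eq_1
  have := @Sp.eq_1
  trivial

local notation "e" p => nv (tE p) 10000
local notation "q" p => nv (tQ p) 10000
local notation "B" p => nv (tB p) 10000
local notation "G" p => nv (tG p) 10000
local notation "F" p => nv (tF p) 1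

theorem ck1 : ∀ p ∈ [3, 5, 7], ∀ a < 15, ∀ m < 15, (F p) a * (F p) m ≤ (F p) (a + m) ∧ ((a < 14 → ¬ p ∣ a) →
    (e p) a * (e p) m ≤ (e p) (a + m) ∧ (e p) a * (B p) m + (q p) a * (e p) m ≤ (B p) (a + m) ∧
    (e p) a * (G p) m + (q p) a * (e p) m ≤ (G p) (a + m) ∧ (14 ≤ a + m + 1 →
    (F p) a * (F p) m + ((e p) a * (B p) m + (q p) a * (e p) m) ≤ (F p) (a + m + 1) * (5 / 3))) := by
  decide +kernel

theorem ck2 : ∀ p ∈ [3, 5, 7], ∀ t < 15, (t + 1 < 14 → ¬ p ∣ t + 1) →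
    (G p) t ≤ (q p) (t + 1) * (5 / 3) ∧ (B p) t ≤ (e p) (t + 1) * (5 / 3) ∧
    (B p) (t + 1) * (e p) t ≤ (e p) (t + 1) * (e p) (t + 1) * (5 / 3) ∧
    (B p) (t + 1) * (e p) t ≤ (q p) (t + 1) * (e p) (t + 1) * (5 / 3) := by
  decide +kernel

set_option synthInstance.maxSize 2000 in
theorem ck3 : ∀ p ∈ [3, 5, 7], ∀ a < 14, ∀ m < 14, a + m + 1 < 14 → ¬ p ∣ a → ¬ p ∣ a + m + 1 →
    ¬ Sp p (a + m + 1) m → vl (tF p) 1 a * vl (tF p) 1 m + (vl (tE p) 10000 a * vl (tB p) 10000 m +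
      vl (tQ p) 10000 a * vl (tE p) 10000 m) < ((tF p).getD (a + m + 1) 0 + 1 : ℕ) ∧
      ((tF p).getD (a + m + 1) 0 : ℚ) ≤ vl (tF p) 1 (a + m + 1) := by
  decide +kernel

theorem ck4 : ∀ p ∈ [3, 5, 7], 1 ≤ vl (tE p) 10000 0 ∧ 1 ≤ vl (tG p) 10000 0 ∧ 1 ≤ vl (tF p) 1 0 ∧
    1 ≤ vl (tF p) 1 1 ∧ (p ≠ 3 → 3 ≤ vl (tF p) 1 3) ∧ 5 ≤ vl (tF p) 1 4 ∧ (p = 7 → 8 ≤ vl (tF p) 1 5) ∧
    (p = 7 → 5 + (vl (tE p) 10000 5 * vl (tB p) 10000 0 + vl (tQ p) 10000 5 * vl (tE p) 10000 0) ≤ vl (tF p) 1 6 ∧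
      14 ≤ vl (tF p) 1 6) ∧ (p = 5 → 24 ≤ vl (tF p) 1 7) ∧
    ∀ n < 15, 3 ≤ n → vl (tF p) 1 n ^ 2 ≤ 3 ^ (n - 1) := by
  decide +kernel

theorem nv_eq (L : List ℕ) (D : ℕ) {s t : ℕ} (h : min s 14 = min t 14) : nv L D s = nv L D t := by
  rw [nv, nv, h]

theorem vl_nonneg (L : List ℕ) (D s : ℕ) : 0 ≤ vl L D s := by unfold vl nv; positivity

theorem ck1' {p : ℕ} (hp : p ∈ [3, 5, 7]) (a m : ℕ) : (F p) a * (F p) m ≤ (F p) (a + m) ∧ (¬ p ∣ a →
    (e p) a * (e p) m ≤ (e p) (a + m) ∧ (e p) a * (B p) m + (q p) a * (e p) m ≤ (B p) (a + m) ∧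
    (e p) a * (G p) m + (q p) a * (e p) m ≤ (G p) (a + m) ∧ (14 ≤ a + m + 1 →
    (F p) a * (F p) m + ((e p) a * (B p) m + (q p) a * (e p) m) ≤ (F p) (a + m + 1) * (5 / 3))) := by
  have h := ck1 p hp (min a 14) (by omega) (min m 14) (by omega)
  simp only [nv_eq _ _ (show min (min a 14) 14 = min a 14 by omega),
    nv_eq _ _ (show min (min m 14) 14 = min m 14 by omega),
    nv_eq _ _ (show min (min a 14 + min m 14) 14 = min (a + m) 14 by omega),
    nv_eq _ _ (show min (min a 14 + min m 14 + 1) 14 = min (a + m + 1) 14 by omega)] at h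
  refine ⟨h.1, fun k => ?_⟩
  obtain ⟨h1, h2, h3, h4⟩ := h.2 fun l => by rwa [show min a 14 = a by omega]
  exact ⟨h1, h2, h3, fun l => h4 (by omega)⟩

theorem sc {x y c : ℚ} (k : ℕ) (h : x ≤ y) {u v : ℚ} (hc : 0 ≤ c) (hu : u = x * c ^ k) (hv : v = y * c ^ k) : u ≤ v :=
  hu ▸ hv ▸ mul_le_mul_of_nonneg_right h (pow_nonneg hc k)

/-- the weights -/
def pot {p : ℕ} (hp : p ∈ [3, 5, 7]) : Pot p :=
  ⟨vl (tE p) 10000, vl (tQ p) 10000, vl (tB p) 10000, vl (tG p) 10000, vl_nonneg _ _, vl_nonneg _ _, vl_nonneg _ _,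
    (ck4 p hp).1, (ck4 p hp).2.1,
    fun a m h => sc (a + m) ((ck1' hp a m).2 h).1 (by norm_num) (by unfold vl; ring) rfl,
    fun a m h => sc (a + m) ((ck1' hp a m).2 h).2.1 (by norm_num) (by unfold vl; ring) rfl,
    fun a m h => sc (a + m) ((ck1' hp a m).2 h).2.2.1 (by norm_num) (by unfold vl; ring) rfl,
    fun t h => by
      have k := ck2 p hp (min t 14) (by omega) fun l => by rwa [show min t 14 = t by omega]
      simp only [nv_eq _ _ (show min (min t 14) 14 = min t 14 by omega),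
        nv_eq _ _ (show min (min t 14 + 1) 14 = min (t + 1) 14 by omega)] at k
      exact ⟨sc t k.1 (by norm_num) rfl (by unfold vl; ring), sc t k.2.1 (by norm_num) rfl (by unfold vl; ring),
        sc (c := 5 / 3) (2 * t + 1) k.2.2.1 (by norm_num) (by unfold vl; ring) (by unfold vl; ring),
        sc (c := 5 / 3) (2 * t + 1) k.2.2.2 (by norm_num) (by unfold vl; ring) (by unfold vl; ring)⟩⟩

theorem eqns_pot : True := by
  have := @pot.eq_1
  trivial

theorem exists_tab {p : ℕ} (hp : p ∈ [3, 5, 7]) : ∃ (w : Pot p) (f : ℕ → ℚ), (∀ n, 0 ≤ f n) ∧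
    (∀ a m, f a * f m ≤ f (a + m)) ∧
    (∀ a m k : ℕ, ¬ p ∣ a → ¬ p ∣ a + m + 1 → ¬ Sp p (a + m + 1) m →
      k ≤ f a * f m + (w.1 a * w.3 m + w.2 a * w.1 m) → k ≤ f (a + m + 1)) ∧
    1 ≤ f 0 ∧ 1 ≤ f 1 ∧ (p ≠ 3 → 3 ≤ f 3) ∧ 5 ≤ f 4 ∧ (p = 7 → 8 ≤ f 5) ∧
    (p = 7 → 5 + (w.1 5 * w.3 0 + w.2 5 * w.1 0) ≤ f 6 ∧ 14 ≤ f 6) ∧ (p = 5 → 24 ≤ f 7) ∧
    ∀ n, 3 ≤ n → f n ^ 2 ≤ 3 ^ (n - 1) := by
  obtain ⟨-, -, h1, h2, h3, h4, h5, h6, h7, h8⟩ := ck4 p hp
  refine ⟨pot hp, vl (tF p) 1, vl_nonneg _ _, fun a m => sc (a + m) (ck1' hp a m).1 (by norm_num) (by unfold vl; ring) rfl,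
    fun a m k ha hn hs hk => ?_, h1, h2, h3, h4, h5, h6, h7, fun n hn => ?_⟩
  · rcases lt_or_ge (a + m + 1) 14 with l | l
    · obtain ⟨k1, k2⟩ := ck3 p hp a (by omega) m (by omega) l ha hn hs
      exact le_trans (Nat.cast_le.2 (Nat.lt_succ_iff.1 (Nat.cast_lt.1 (hk.trans_lt k1)))) k2
    · exact hk.trans (sc (c := 5 / 3) (a + m) (((ck1' hp a m).2 ha).2.2.2 l) (by norm_num)
        (by simp only [pot, vl]; ring) (by unfold vl; ring))
  · rcases lt_or_ge n 15 with l | l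
    · exact h8 n l hn
    obtain ⟨d, rfl⟩ := Nat.exists_eq_add_of_le (show 14 ≤ n by omega)
    have : vl (tF p) 1 (14 + d) ^ 2 = vl (tF p) 1 14 ^ 2 * (25 / 9) ^ d := by
      rw [vl, vl, nv_eq _ _ (show min (14 + d) 14 = min 14 14 by omega), show (25 / 9 : ℚ) = (5 / 3) ^ 2 by norm_num,
        ← pow_mul]
      ring
    rw [this, show 14 + d - 1 = 14 - 1 + d by omega, pow_add]
    exact mul_le_mul (h8 14 (by omega) (by omega)) (pow_le_pow_left₀ (by norm_num) (by norm_num) d) (by positivity)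
      (by positivity)

end H62.KD
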