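import Mathlib

/-! A permutation group of degree `n` with `r` orbits has at most `2 ^ (n - r)` conjugacy classes. -/

set_option autoImplicit false
set_option linter.unusedSectionVars false

namespace H62.KT

open Subgroup MulAction Finset Equiv

variable {α : Type*} [Fintype α] [DecidableEq α]

/-- The number of orbits. -/
noncomputable def orbs (A : Subgroup (Perm α)) : ℕ := Nat.card (orbitRel.Quotient A α)

/-- The coset `g A` is covered by at most `N` classes under `H`. -/
def Cv (H A : Subgroup (Perm α)) (g : Perm α) (N : ℕ) : Prop :=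
  ∃ T : Finset (Perm α), T.card ≤ N ∧ ∀ x, g⁻¹ * x ∈ A → ∃ t ∈ T, ∃ h ∈ H, h * t * h⁻¹ = x

theorem eqns_kt : True := by
  have := @orbs.eq_1.{0}
  have := @Cv.eq_1.{0}
  trivial

theorem card_fiber {X Y : Type*} [Fintype X] [Finite Y] [DecidableEq Y] {f : X → Y} (hf : Function.Surjective f)
    (y : Y) : Nat.card Y + #{x | f x = y} ≤ Nat.card X + 1 := by
  have := Fintype.ofFinite Y
  have h1 := card_filter_add_card_filter_not (s := univ) (fun x => f x = y)
  have h2 : (univ.erase y).card ≤ #{x | ¬ f x = y} :=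
    card_le_card_of_surjOn f fun z hz => by
      obtain ⟨x, rfl⟩ := hf z
      exact ⟨x, by simpa using hz, rfl⟩
  rw [card_erase_of_mem (mem_univ y), card_univ] at h2
  rw [card_univ] at h1
  rw [Nat.card_eq_fintype_card, Nat.card_eq_fintype_card]
  omega

theorem orbs_conj {A B : Subgroup (Perm α)} {g : Perm α} (h : ∀ b, b ∈ B ↔ g⁻¹ * b * g ∈ A) : orbs A = orbs B :=
  Nat.card_congr (Quotient.congr g fun x y =>
    ⟨fun ⟨a, e⟩ => ⟨⟨g * a * g⁻¹, (h _).2 (by simp [mul_assoc])⟩, by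
      show (g * a * g⁻¹ : Perm α) (g y) = g x
      rw [← e]; simp [Subgroup.smul_def]⟩,
    fun ⟨b, e⟩ => ⟨⟨_, (h _).1 b.2⟩, by
      show (g⁻¹ * b * g : Perm α) y = x
      have e' : (b : Perm α) (g y) = g x := e
      simp [e']⟩⟩)

theorem orbs_le (A : Subgroup (Perm α)) : orbs A ≤ Fintype.card α := by
  rw [← Nat.card_eq_fintype_card]
  exact Nat.card_le_card_of_surjective _ (Quotient.mk_surjective (s := orbitRel A α))

theorem swap_comm' {h : Perm α} {p γ : α} (h1 : h p = p) (h2 : h γ = γ) : h * swap p γ = swap p γ * h := by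
  rw [mul_swap_eq_swap_mul, h1, h2]

/-- contraction of the arrow from `p` to `x p` -/
theorem contract {A : Subgroup (Perm α)} {g x : Perm α} {p : α} (hx : g⁻¹ * x ∈ A)
    (hH : ∀ h : Perm α, h p = p → (h ∈ A ↔ g⁻¹ * h * g ∈ A)) (h : Perm α) (hγ : x p ≠ p → h (x p) = x p) :
    h ∈ A ⊓ stabilizer (Perm α) p ↔
      (swap p (x p) * x)⁻¹ * h * (swap p (x p) * x) ∈ A ⊓ stabilizer (Perm α) p := by
  have e : ∀ k : Perm α, x⁻¹ * k * x ∈ A ↔ g⁻¹ * k * g ∈ A := fun k => by
    rw [show x⁻¹ * k * x = (g⁻¹ * x)⁻¹ * (g⁻¹ * k * g) * (g⁻¹ * x) by group, mul_mem_cancel_right hx,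
      mul_mem_cancel_left (inv_mem hx)]
  have key : h p = p → (h ∈ A ⊓ stabilizer (Perm α) p ↔
      (swap p (x p) * x)⁻¹ * h * (swap p (x p) * x) ∈ A ⊓ stabilizer (Perm α) p) := fun h1 => by
    have h2 : h (x p) = x p := by
      by_cases e : x p = p
      · rw [e, h1]
      · exact hγ e
    have h3 : (swap p (x p) * x)⁻¹ * h * (swap p (x p) * x) = x⁻¹ * h * x := by
      rw [mul_assoc, ← mul_assoc h, swap_comm' h1 h2]; group
    rw [h3, Subgroup.mem_inf, Subgroup.mem_inf, e, ← hH h h1]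
    simp [h1, h2]
  refine ⟨fun h1 => (key h1.2).1 h1, fun h1 => (key ?_).2 h1⟩
  have := mem_stabilizer_iff.1 h1.2
  simpa [Equiv.symm_apply_eq, swap_apply_eq_iff] using this

theorem both (m : ℕ) : ∀ (S : Finset α), S.card ≤ m → ∀ (A : Subgroup (Perm α)) (g : Perm α),
    (∀ x ∉ S, g x = x ∧ ∀ a ∈ A, a x = x) →
    (∀ p ∈ S, (∀ h : Perm α, h p = p → (h ∈ A ↔ g⁻¹ * h * g ∈ A)) →
      Cv (A ⊓ stabilizer (Perm α) p) A g (2 ^ (Fintype.card α - orbs A))) ∧
    ((∀ h : Perm α, h ∈ A ↔ g⁻¹ * h * g ∈ A) → Cv A A g (2 ^ (Fintype.card α - orbs A))) := by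
  classical
  induction m with
  | zero =>
    intro S hS A g h
    obtain rfl := card_eq_zero.1 (Nat.le_zero.1 hS)
    refine ⟨fun p hp => absurd hp (notMem_empty p), fun _ => ⟨{g}, Nat.one_le_two_pow, fun x hx => ⟨g, by simp, 1,
      one_mem _, ?_⟩⟩⟩
    have : g⁻¹ * x = 1 := Equiv.ext fun y => (h y (notMem_empty y)).2 _ hx
    rw [one_mul, inv_one, mul_one, inv_mul_eq_one.1 this]
  | succ m ih =>
    intro S hS A g h
    have main : ∀ p ∈ S, (∀ h : Perm α, h p = p → (h ∈ A ↔ g⁻¹ * h * g ∈ A)) →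
        Cv (A ⊓ stabilizer (Perm α) p) A g (2 ^ (Fintype.card α - orbs A)) := by
      intro p hp hH
      set H := A ⊓ stabilizer (Perm α) p with hH'
      let B : Subgroup (Perm α) := A.comap (MulAut.conj g⁻¹).toMonoidHom
      have hB : ∀ b, b ∈ B ↔ g⁻¹ * b * g ∈ A := fun b => by simp [B]
      have HB : H ≤ B := fun k hk => (hB k).2 ((hH k hk.2).1 hk.1)
      have br : ∀ γ : α, ∃ T : Finset (Perm α), T.card ≤ 2 ^ (Fintype.card α - orbs H) ∧
          ∀ x, g⁻¹ * x ∈ A → x p = γ → ∃ t ∈ T, ∃ h ∈ H, h * t * h⁻¹ = x := by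
        intro γ
        by_cases hx : ∃ x : Perm α, g⁻¹ * x ∈ A ∧ x p = γ
        swap
        · exact ⟨∅, by simp, fun x h1 h2 => absurd ⟨x, h1, h2⟩ hx⟩
        obtain ⟨x, hx, rfl⟩ := hx
        have fx : ∀ y ∉ S, x y = y := fun y hy => by
          have := (h y hy).2 _ hx
          rwa [Perm.mul_apply, Perm.inv_eq_iff_eq, (h y hy).1] at this
        have γS : x p ∈ S := by
          by_contra e
          exact e ((x.injective (fx _ e)).symm ▸ hp)
        obtain ⟨i1, i2⟩ := ih (S.erase p) (by rw [card_erase_of_mem hp]; omega) H (swap p (x p) * x) fun y hy => by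
          by_cases e : y = p
          · subst e
            exact ⟨by simp, fun a ha => ha.2⟩
          · have hy' : y ∉ S := fun k => hy (mem_erase.2 ⟨e, k⟩)
            exact ⟨by rw [Perm.mul_apply, fx y hy', swap_apply_of_ne_of_ne e fun k => hy' (k ▸ γS)],
              fun a ha => (h y hy').2 a ha.1⟩
        have : Cv (H ⊓ stabilizer (Perm α) (x p)) H (swap p (x p) * x) (2 ^ (Fintype.card α - orbs H)) := by
          by_cases e : x p = p
          · rw [inf_eq_left.2 (show H ≤ stabilizer (Perm α) (x p) by rw [e]; exact inf_le_right)]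
            exact i2 fun k => contract hx hH k fun e' => absurd e e'
          · exact i1 _ (mem_erase.2 ⟨e, γS⟩) fun k hk => contract hx hH k fun _ => hk
        obtain ⟨T, h1, h2⟩ := this
        refine ⟨T.image (swap p (x p) * ·), card_image_le.trans h1, fun y hy e => ?_⟩
        obtain ⟨t, ht, k, hk, e'⟩ := h2 (swap p (x p) * y) (by
          rw [show (swap p (x p) * x)⁻¹ * (swap p (x p) * y) = (g⁻¹ * x)⁻¹ * (g⁻¹ * y) by group]
          refine Subgroup.mem_inf.2 ⟨mul_mem (inv_mem hx) hy, ?_⟩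
          simp [e, Perm.inv_eq_iff_eq])
        refine ⟨_, mem_image_of_mem _ ht, k, hk.1, ?_⟩
        rw [← mul_assoc, swap_comm' hk.1.2 hk.2, mul_assoc, mul_assoc, ← mul_assoc k, e', swap_mul_self_mul]
      choose T h1 h2 using br
      have := Fintype.ofFinite (orbitRel.Quotient H α)
      let π : orbitRel.Quotient H α → orbitRel.Quotient B α :=
        Quotient.map id fun x y ⟨a, e⟩ => ⟨⟨a, HB a.2⟩, e⟩
      have h3 := card_fiber (f := π) (fun ω => by
        obtain ⟨x, rfl⟩ := Quotient.exists_rep ω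
        exact ⟨Quotient.mk _ x, rfl⟩) (Quotient.mk _ (g p))
      refine ⟨(univ.filter fun ξ => π ξ = Quotient.mk _ (g p)).biUnion fun ξ => T ξ.out, ?_, fun x hx => ?_⟩
      · refine (card_biUnion_le_card_mul _ _ _ fun ξ _ => h1 _).trans ?_
        have h4 := orbs_le H
        have h5 := orbs_conj hB
        change orbs B + _ ≤ orbs H + 1 at h3
        generalize #{ξ | π ξ = Quotient.mk _ (g p)} = b at h3
        rcases b with _ | b
        · simp
        calc (b + 1) * 2 ^ (Fintype.card α - orbs H) ≤ 2 ^ b * 2 ^ (Fintype.card α - orbs H) :=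
              Nat.mul_le_mul_right _ Nat.lt_two_pow_self
          _ ≤ _ := by rw [← pow_add]; exact Nat.pow_le_pow_right two_pos (by omega)
      · obtain ⟨⟨k, hk⟩, e⟩ : (Quotient.mk (orbitRel H α) (x p)).out ∈ orbit H (x p) :=
          Quotient.exact (s := orbitRel H α) (Quotient.out_eq _)
        have kp : k⁻¹ p = p := (inv_mem hk).2
        obtain ⟨t, ht, l, hl, e'⟩ := h2 (Quotient.mk (orbitRel H α) (x p)).out (k * x * k⁻¹) (by
          rw [show g⁻¹ * (k * x * k⁻¹) = g⁻¹ * k * g * (g⁻¹ * x) * k⁻¹ by group]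
          exact mul_mem (mul_mem ((hB k).1 (HB hk)) hx) (inv_mem hk.1)) (by
          rw [Perm.mul_apply, Perm.mul_apply, kp]; exact e)
        have e2 : π (Quotient.mk (orbitRel H α) (x p)) = Quotient.mk _ (g p) :=
          Quotient.sound (s := orbitRel B α) ⟨⟨x * g⁻¹, (hB _).2 (by simpa [mul_assoc] using hx)⟩, by
            simp [Subgroup.smul_def]⟩
        refine ⟨t, mem_biUnion.2 ⟨_, mem_filter.2 ⟨mem_univ _, e2⟩, ht⟩, k⁻¹ * l, mul_mem (inv_mem hk) hl, ?_⟩
        calc k⁻¹ * l * t * (k⁻¹ * l)⁻¹ = k⁻¹ * (l * t * l⁻¹) * k := by group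
          _ = x := by rw [e']; group
    refine ⟨main, fun hH => ?_⟩
    rcases S.eq_empty_or_nonempty with rfl | ⟨p, hp⟩
    · exact (ih ∅ (by simp) A g h).2 hH
    · obtain ⟨T, h1, h2⟩ := main p hp fun k _ => hH k
      exact ⟨T, h1, fun x hx => have ⟨t, ht, k, hk, e⟩ := h2 x hx; ⟨t, ht, k, hk.1, e⟩⟩

theorem card_le_of_cv {A : Subgroup (Perm α)} {N : ℕ} (h : Cv A A 1 N) : Nat.card (ConjClasses A) ≤ N := by
  classical
  obtain ⟨T, h1, h2⟩ := h
  refine le_trans ?_ h1
  rw [← Fintype.card_coe T, ← Nat.card_eq_fintype_card]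
  refine Nat.card_le_card_of_surjective
    (fun t : T => if h : t.1 ∈ A then ConjClasses.mk (⟨t.1, h⟩ : A) else 1) fun c => ?_
  obtain ⟨g, rfl⟩ := ConjClasses.mk_surjective c
  obtain ⟨t, ht, k, hk, e⟩ := h2 g (by simp)
  have : t ∈ A := by
    have := g.2
    rwa [← e, mul_mem_cancel_right (inv_mem hk), mul_mem_cancel_left hk] at this
  exact ⟨⟨t, ht⟩, by
    simp only [this, dif_pos]
    exact ConjClasses.mk_eq_mk_iff_isConj.2 (isConj_iff.2 ⟨⟨k, hk⟩, Subtype.ext e⟩)⟩

theorem card_classes (A : Subgroup (Perm α)) : Nat.card (ConjClasses A) ≤ 2 ^ (Fintype.card α - orbs A) :=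
  card_le_of_cv ((both _ univ le_rfl A 1 fun x hx => absurd (mem_univ x) hx).2 fun h => by simp)

theorem main (A : Subgroup (Perm α)) : Nat.card (ConjClasses A) ≤ 2 ^ (Fintype.card α - 1) := by
  refine (card_classes A).trans (Nat.pow_le_pow_right two_pos ?_)
  rcases isEmpty_or_nonempty α with h | ⟨⟨x⟩⟩
  · simp
  · have : Nonempty (orbitRel.Quotient A α) := ⟨Quotient.mk _ x⟩
    have : 0 < orbs A := Nat.card_pos
    omega

end H62.KT
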